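import Cfsg.Agent.H277.ClsPsp
import Cfsg.Agent.S0280

/-!
# `p`-parts of the orders of the symplectic and unitary groups, `p` odd, `p ∤ q` (for S4932, S4953)
-/

set_option autoImplicit false

namespace Cfsg.Agent.H510.BD

universe u

/-- `v_p(|x^i - 1|)` -/
def vp (p : ℕ) (x : ℤ) (i : ℕ) : ℕ := (Int.natAbs (x ^ i - 1)).factorization p

section

variable {p : ℕ} [hp : Fact p.Prime]

theorem pow_ne_one_of_two_le {x : ℤ} (hx : 2 ≤ x.natAbs) {i : ℕ} (hi : i ≠ 0) : x ^ i - 1 ≠ 0 := by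
  intro h
  have h1 : x ^ i = 1 := by linarith
  have h2 := congrArg Int.natAbs h1
  rw [Int.natAbs_pow, Int.natAbs_one] at h2
  rcases (Nat.pow_eq_one.1 h2) with h3 | h3
  · omega
  · exact hi h3

theorem dvd_pow_sub_one_iff {x : ℤ} {i : ℕ} : (p : ℤ) ∣ x ^ i - 1 ↔ orderOf (x : ZMod p) ∣ i := by
  rw [orderOf_dvd_iff_pow_eq_one, ← ZMod.intCast_zmod_eq_zero_iff_dvd]
  push_cast
  exact sub_eq_zero

theorem orderOf_pos_zmod {x : ℤ} (hx : ¬ (p : ℤ) ∣ x) : 0 < orderOf (x : ZMod p) := by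
  have h1 : (x : ZMod p) ≠ 0 := by
    intro h
    exact hx ((ZMod.intCast_zmod_eq_zero_iff_dvd x p).1 h)
  exact (isOfFinOrder_iff_pow_eq_one.2 ⟨p - 1, by have := hp.out.two_le; omega, ZMod.pow_card_sub_one_eq_one h1⟩).orderOf_pos

theorem vp_eq (hp2 : p ≠ 2) {x : ℤ} (hx : 2 ≤ x.natAbs) (hpx : ¬ (p : ℤ) ∣ x) {i : ℕ} (hi : i ≠ 0) :
    vp p x i = if orderOf (x : ZMod p) ∣ i then vp p x (orderOf (x : ZMod p)) + (i / orderOf (x : ZMod p)).factorization p
      else 0 := by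
  set d := orderOf (x : ZMod p) with hd
  have hd0 : 0 < d := orderOf_pos_zmod hpx
  split_ifs with h
  · obtain ⟨k, rfl⟩ := h
    have hk : k ≠ 0 := by rintro rfl; exact hi (mul_zero _)
    rw [Nat.mul_div_cancel_left k hd0]
    have h1 : (p : ℤ) ∣ x ^ d - 1 := dvd_pow_sub_one_iff.2 (dvd_refl d)
    have h2 : ¬ (p : ℤ) ∣ x ^ d := by
      intro h
      exact hpx (Int.Prime.dvd_pow' hp.out h)
    have h3 := Int.emultiplicity_pow_sub_pow hp.out (hp.out.odd_of_ne_two hp2) (y := 1) h1 h2 k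
    rw [one_pow, ← pow_mul, ← Int.emultiplicity_natAbs, ← Int.emultiplicity_natAbs p (x ^ d - 1),
      ← padicValNat_eq_emultiplicity (Int.natAbs_ne_zero.2 (pow_ne_one_of_two_le hx hi)),
      ← padicValNat_eq_emultiplicity (Int.natAbs_ne_zero.2 (pow_ne_one_of_two_le hx hd0.ne')),
      ← padicValNat_eq_emultiplicity hk] at h3
    have h4 : padicValNat p (x ^ (d * k) - 1).natAbs = padicValNat p (x ^ d - 1).natAbs + padicValNat p k := by
      exact_mod_cast h3
    unfold vp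
    rw [Nat.factorization_def _ hp.out, Nat.factorization_def _ hp.out, Nat.factorization_def _ hp.out, h4]
  · unfold vp
    apply Nat.factorization_eq_zero_of_not_dvd
    intro h1
    exact h (dvd_pow_sub_one_iff.1 (Int.natCast_dvd.2 h1))

theorem sum_vp (hp2 : p ≠ 2) {x : ℤ} (hx : 2 ≤ x.natAbs) (hpx : ¬ (p : ℤ) ∣ x) (m : ℕ) :
    ∑ i ∈ Finset.range m, vp p x (i + 1) = (m / orderOf (x : ZMod p)) * vp p x (orderOf (x : ZMod p)) +
      (Nat.factorial (m / orderOf (x : ZMod p))).factorization p := by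
  set d := orderOf (x : ZMod p) with hd
  have hd0 : 0 < d := orderOf_pos_zmod hpx
  induction m with
  | zero => simp
  | succ m ih =>
    rw [Finset.sum_range_succ, ih, vp_eq hp2 hx hpx (Nat.succ_ne_zero m), ← hd]
    by_cases h : d ∣ m + 1
    · rw [if_pos h]
      have h1 : (m + 1) / d = m / d + 1 := by rw [Nat.succ_div, if_pos h]
      rw [h1, Nat.factorial_succ, Nat.factorization_mul (Nat.succ_ne_zero _) (Nat.factorial_ne_zero _),
        Finsupp.add_apply]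
      ring
    · rw [if_neg h]
      have h1 : (m + 1) / d = m / d := by rw [Nat.succ_div, if_neg h, add_zero]
      rw [h1, add_zero]

theorem sq_le_three_pow {n : ℕ} (hn : 3 ≤ n) : n ^ 2 ≤ 3 ^ (n - 1) := by
  induction n, hn using Nat.le_induction with
  | base => norm_num
  | succ n hn ih =>
    have h1 : n + 1 - 1 = (n - 1) + 1 := by omega
    rw [h1, pow_succ]
    have h2 : (n + 1) ^ 2 ≤ n ^ 2 * 3 := by nlinarith
    exact h2.trans (Nat.mul_le_mul_right 3 ih)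

theorem factorial_part (hp2 : p ≠ 2) (w : ℕ) :
    (p ^ (Nat.factorial w).factorization p) ^ 2 ≤ 3 ^ (w - 1) := by
  rcases Nat.eq_zero_or_pos w with rfl | hw
  · simp
  have hp3 : 3 ≤ p := by
    have := hp.out.two_le
    omega
  have h1 : (p - 1) * (Nat.factorial w).factorization p ≤ w - 1 := by
    rw [Nat.factorization_def _ hp.out, sub_one_mul_padicValNat_factorial]
    apply Nat.sub_le_sub_left
    by_contra hcon
    have h0 : (Nat.digits p w).sum = 0 := by omega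
    have h2 := Nat.getLast_digit_ne_zero p hw.ne'
    apply h2
    exact (List.sum_eq_zero_iff.1 h0) _ (List.getLast_mem _)
  calc (p ^ (Nat.factorial w).factorization p) ^ 2 = (p ^ 2) ^ (Nat.factorial w).factorization p := by
        rw [← pow_mul, ← pow_mul, mul_comm]
    _ ≤ (3 ^ (p - 1)) ^ (Nat.factorial w).factorization p := Nat.pow_le_pow_left (sq_le_three_pow hp3) _
    _ = 3 ^ ((p - 1) * (Nat.factorial w).factorization p) := by rw [← pow_mul]
    _ ≤ 3 ^ (w - 1) := Nat.pow_le_pow_right (by norm_num) h1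

/-- the master inequality -/
theorem master (hp2 : p ≠ 2) {x : ℤ} (hx : 2 ≤ x.natAbs) (hpx : ¬ (p : ℤ) ∣ x) (m : ℕ) :
    (p ^ ∑ i ∈ Finset.range m, vp p x (i + 1)) ^ 2 ≤
      ((p ^ vp p x (orderOf (x : ZMod p))) ^ 2 * 3) ^ (m / orderOf (x : ZMod p)) := by
  rw [sum_vp hp2 hx hpx, pow_add, mul_pow, mul_pow]
  apply Nat.mul_le_mul
  · apply le_of_eq
    rw [← pow_mul, ← pow_mul, ← pow_mul]
    congr 1
    ring
  · exact (factorial_part hp2 _).trans (Nat.pow_le_pow_right (by norm_num) (Nat.sub_le _ _))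

theorem prod_factorization {x : ℤ} (hx : 2 ≤ x.natAbs) (m : ℕ) :
    (∏ i ∈ Finset.range m, (Int.natAbs (x ^ (i + 1) - 1))).factorization p = ∑ i ∈ Finset.range m, vp p x (i + 1) := by
  rw [Nat.factorization_prod (fun i _ => Int.natAbs_ne_zero.2 (pow_ne_one_of_two_le hx (Nat.succ_ne_zero i))),
    Finsupp.finset_sum_apply]
  rfl

end

/-- (1) -/
theorem ordProj_psp {p : ℕ} [Fact p.Prime] (hp2 : p ≠ 2) {F : Type u} [Field F] [Fintype F]
    (hpF : ¬ p ∣ Fintype.card F) {m e : ℕ} (hm : 1 ≤ m) (he : e = orderOf (((Fintype.card F : ℕ) : ZMod p) ^ 2)) :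
    (ordProj[p] (Nat.card (Cfsg.PSp m F))) ^ 2 ≤
      ((ordProj[p] (Fintype.card F ^ (2 * e) - 1)) ^ 2 * 3) ^ (m / e) := by
  have hp : p.Prime := Fact.out
  set q := Fintype.card F with hq
  have hq2 : 2 ≤ q := Fintype.one_lt_card
  have h := H277.ClsPsp.card_psp (F := F) hq.symm hm
  set x : ℤ := (q : ℤ) ^ 2 with hx
  have hxa : 2 ≤ x.natAbs := by
    rw [hx, Int.natAbs_pow, Int.natAbs_natCast]
    nlinarith
  have hpx : ¬ (p : ℤ) ∣ x := by
    intro h1
    have h2 := Int.Prime.dvd_pow' hp h1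
    exact hpF (by exact_mod_cast h2)
  have hcast : (x : ZMod p) = ((q : ℕ) : ZMod p) ^ 2 := by rw [hx]; push_cast; rfl
  have hnat : ∀ i : ℕ, Int.natAbs (x ^ i - 1) = q ^ (2 * i) - 1 := by
    intro i
    rw [hx, ← pow_mul]
    have h1 : 1 ≤ q ^ (2 * i) := Nat.one_le_pow _ _ (by omega)
    have h2 : ((q : ℤ) ^ (2 * i) - 1) = ((q ^ (2 * i) - 1 : ℕ) : ℤ) := by
      rw [Nat.cast_sub h1]; push_cast; rfl
    rw [h2, Int.natAbs_natCast]
  have hprod : ∏ i ∈ Finset.range m, (q ^ (2 * (i + 1)) - 1) = ∏ i ∈ Finset.range m, Int.natAbs (x ^ (i + 1) - 1) :=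
    Finset.prod_congr rfl fun i _ => (hnat (i + 1)).symm
  have hdvd : Nat.card (Cfsg.PSp m F) ∣ q ^ (m ^ 2) * ∏ i ∈ Finset.range m, Int.natAbs (x ^ (i + 1) - 1) := by
    rw [← hprod, ← h]; exact Dvd.intro_left _ rfl
  have hne : (∏ i ∈ Finset.range m, Int.natAbs (x ^ (i + 1) - 1)) ≠ 0 :=
    Finset.prod_ne_zero_iff.2 fun i _ => Int.natAbs_ne_zero.2 (pow_ne_one_of_two_le hxa (Nat.succ_ne_zero i))
  have hqne : q ^ (m ^ 2) ≠ 0 := pow_ne_zero _ (by omega)
  have hfac : (Nat.card (Cfsg.PSp m F)).factorization p ≤ ∑ i ∈ Finset.range m, vp p x (i + 1) := by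
    have h1 := (Nat.factorization_le_iff_dvd (by exact Nat.card_pos.ne') (mul_ne_zero hqne hne)).2 hdvd p
    rw [Nat.factorization_mul hqne hne, Finsupp.add_apply, Nat.factorization_pow, Finsupp.smul_apply,
      Nat.factorization_eq_zero_of_not_dvd hpF, smul_zero, zero_add, prod_factorization hxa] at h1
    exact h1
  have hmas := master hp2 hxa hpx m
  rw [hcast, ← he] at hmas
  have h5 : p ^ vp p x e = ordProj[p] (q ^ (2 * e) - 1) := by
    unfold vp
    rw [hnat]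
  rw [h5] at hmas
  exact (Nat.pow_le_pow_left (Nat.pow_le_pow_right hp.pos hfac) 2).trans hmas

theorem natAbs_neg_pow {q : ℕ} (hq : 1 ≤ q) (i : ℕ) :
    Int.natAbs ((-(q : ℤ)) ^ (i + 1) - 1) = if Even i then q ^ (i + 1) + 1 else q ^ (i + 1) - 1 := by
  split_ifs with h
  · rw [Odd.neg_pow h.add_one]
    have h2 : (-(q : ℤ) ^ (i + 1) - 1) = -((q ^ (i + 1) + 1 : ℕ) : ℤ) := by push_cast; ring
    rw [h2, Int.natAbs_neg, Int.natAbs_natCast]
  · rw [Even.neg_pow (Nat.not_even_iff_odd.1 h).add_one]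
    have h1 : 1 ≤ q ^ (i + 1) := Nat.one_le_pow _ _ hq
    have h2 : ((q : ℤ) ^ (i + 1) - 1) = ((q ^ (i + 1) - 1 : ℕ) : ℤ) := by
      rw [Nat.cast_sub h1]; push_cast; rfl
    rw [h2, Int.natAbs_natCast]

/-- the `p`-adic valuation of the order of the unitary group -/
theorem fac_psu {p : ℕ} [Fact p.Prime] {F : Type u} [Field F] [Fintype F] {q : ℕ}
    (hF : Fintype.card F = q ^ 2) (hpq : ¬ p ∣ q) {n : ℕ} (hn : 2 ≤ n) :
    (Nat.gcd n (q + 1)).factorization p + ((q + 1).factorization p + (Nat.card (Cfsg.PSU n F q)).factorization p) =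
      ∑ i ∈ Finset.range n, vp p (-(q : ℤ)) (i + 1) := by
  have hp : p.Prime := Fact.out
  have hq2 : 2 ≤ q := Cfsg.Agent.LieClassical.HermBasic.two_le hF
  have h := S0280.result hF n hn
  have hxa : 2 ≤ (-(q : ℤ)).natAbs := by rw [Int.natAbs_neg, Int.natAbs_natCast]; exact hq2
  rw [show ∏ i ∈ Finset.range n, (if Even i then q ^ (i + 1) + 1 else q ^ (i + 1) - 1) =
      ∏ i ∈ Finset.range n, Int.natAbs ((-(q : ℤ)) ^ (i + 1) - 1) from
      Finset.prod_congr rfl fun i _ => (natAbs_neg_pow (by omega) i).symm] at h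
  have hne : (∏ i ∈ Finset.range n, Int.natAbs ((-(q : ℤ)) ^ (i + 1) - 1)) ≠ 0 :=
    Finset.prod_ne_zero_iff.2 fun i _ => Int.natAbs_ne_zero.2 (pow_ne_one_of_two_le hxa (Nat.succ_ne_zero i))
  have hqne : q ^ (n * (n - 1) / 2) ≠ 0 := pow_ne_zero _ (by omega)
  have h1 : (Nat.gcd n (q + 1) * ((q + 1) * Nat.card (Cfsg.PSU n F q))).factorization p =
      (q ^ (n * (n - 1) / 2) * ∏ i ∈ Finset.range n, Int.natAbs ((-(q : ℤ)) ^ (i + 1) - 1)).factorization p := by
    rw [h]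
  have hg : Nat.gcd n (q + 1) ≠ 0 := (Nat.gcd_pos_of_pos_left _ (by omega)).ne'
  have hc : Nat.card (Cfsg.PSU n F q) ≠ 0 := Nat.card_pos.ne'
  rw [Nat.factorization_mul hg (mul_ne_zero (Nat.succ_ne_zero q) hc), Nat.factorization_mul (Nat.succ_ne_zero q) hc,
    Nat.factorization_mul hqne hne, Finsupp.add_apply, Finsupp.add_apply, Finsupp.add_apply, Nat.factorization_pow,
    Finsupp.smul_apply, Nat.factorization_eq_zero_of_not_dvd hpq, smul_zero, zero_add, prod_factorization hxa] at h1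
  exact h1

theorem not_dvd_neg {p q : ℕ} (hpq : ¬ p ∣ q) : ¬ (p : ℤ) ∣ -(q : ℤ) := by
  rw [dvd_neg]
  intro h
  exact hpq (by exact_mod_cast h)

/-- (2) -/
theorem ordProj_psu {p : ℕ} [Fact p.Prime] (hp2 : p ≠ 2) {F : Type u} [Field F] [Fintype F] {q : ℕ}
    (hF : Fintype.card F = q ^ 2) (hpq : ¬ p ∣ q) {n d : ℕ} (hn : 2 ≤ n) (hd : d = orderOf (-((q : ℕ) : ZMod p))) :
    (ordProj[p] (Nat.card (Cfsg.PSU n F q))) ^ 2 ≤
      ((ordProj[p] (Int.natAbs ((-(q : ℤ)) ^ d - 1))) ^ 2 * 3) ^ (n / d) := by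
  have hp : p.Prime := Fact.out
  have hq2 : 2 ≤ q := Cfsg.Agent.LieClassical.HermBasic.two_le hF
  have hxa : 2 ≤ (-(q : ℤ)).natAbs := by rw [Int.natAbs_neg, Int.natAbs_natCast]; exact hq2
  have h1 := fac_psu hF hpq hn
  have hmas := master hp2 hxa (not_dvd_neg hpq) n
  have hcast : ((-(q : ℤ) : ℤ) : ZMod p) = -((q : ℕ) : ZMod p) := by push_cast; rfl
  rw [hcast, ← hd, ← h1] at hmas
  refine (Nat.pow_le_pow_left (Nat.pow_le_pow_right hp.pos ?_) 2).trans hmas
  omega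

/-- (3) -/
theorem ordProj_psu_one {p : ℕ} [Fact p.Prime] (hp2 : p ≠ 2) {F : Type u} [Field F] [Fintype F] {q : ℕ}
    (hF : Fintype.card F = q ^ 2) (hpq : p ∣ q + 1) {n : ℕ} (hn : 2 ≤ n) :
    (ordProj[p] (Nat.gcd n (q + 1)) * ordProj[p] (Nat.card (Cfsg.PSU n F q))) ^ 2 ≤
      ((ordProj[p] (q + 1)) ^ 2 * 3) ^ (n - 1) := by
  have hp : p.Prime := Fact.out
  have hq2 : 2 ≤ q := Cfsg.Agent.LieClassical.HermBasic.two_le hF
  have hpq' : ¬ p ∣ q := by
    intro h
    have h1 := (Nat.dvd_add_right h).1 hpq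
    exact hp.one_lt.ne' (Nat.dvd_one.1 h1)
  have hxa : 2 ≤ (-(q : ℤ)).natAbs := by rw [Int.natAbs_neg, Int.natAbs_natCast]; exact hq2
  have h1 := fac_psu hF hpq' hn
  have h2 := sum_vp hp2 hxa (not_dvd_neg hpq') n
  have hd : orderOf ((-(q : ℤ) : ℤ) : ZMod p) = 1 := by
    rw [orderOf_eq_one_iff]
    have h3 : ((q + 1 : ℕ) : ZMod p) = 0 := (ZMod.natCast_eq_zero_iff _ _).2 hpq
    push_cast at h3 ⊢
    exact (eq_neg_of_add_eq_zero_right h3).symm
  have hv : vp p (-(q : ℤ)) 1 = (q + 1).factorization p := by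
    unfold vp
    rw [show Int.natAbs ((-(q : ℤ)) ^ 1 - 1) = q + 1 from by
      have h := natAbs_neg_pow (q := q) (by omega) 0
      simpa using h]
  rw [hd, Nat.div_one, hv] at h2
  have h3 : (Nat.gcd n (q + 1)).factorization p + (Nat.card (Cfsg.PSU n F q)).factorization p =
      (n - 1) * (q + 1).factorization p + (Nat.factorial n).factorization p := by
    obtain ⟨k, rfl⟩ : ∃ k, n = k + 1 := ⟨n - 1, by omega⟩
    have h4 : k + 1 - 1 = k := by omega
    rw [h4]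
    rw [h2] at h1
    have h5 : (k + 1) * (q + 1).factorization p = k * (q + 1).factorization p + (q + 1).factorization p := by ring
    omega
  rw [← pow_add, h3, pow_add, mul_pow, mul_pow]
  apply Nat.mul_le_mul
  · apply le_of_eq
    rw [← pow_mul, ← pow_mul, ← pow_mul]
    congr 1
    ring
  · exact factorial_part hp2 n

end Cfsg.Agent.H510.BD
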